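import Cfsg.Agent.H129.CycCard
import Cfsg.Agent.H129.CycRow

/-!
# Elements of isolated orders are diagonalisable over the algebraic closure (helper129)

* `DiagAt D e0 r` : every element of `G0` of order divisible by `r` is, after `e0 : G0 →* D.group k`, conjugate to an
  element of the diagonal torus `TT D k`;
* the rows for `G₂`, `F₄`, `E₆`, `E₇`, `E₈` (embedding `emb _ (algebraMap F (AlgebraicClosure F))`).
-/

set_option autoImplicit false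
set_option linter.unusedSectionVars false
set_option linter.dupNamespace false

namespace Cfsg.Agent.H129.Diag

open CoxeterSystem Cfsg Cfsg.Lie Cfsg.Lie.ChevalleyDatum
open Cfsg.Agent.ChevalleyStructure Cfsg.Agent.ChevalleyStructure.Elts Cfsg.Agent.ChevalleyStructure.CoxeterGeom
  Cfsg.Agent.ChevalleyStructure.CoxeterGeomTypes Cfsg.Agent.ChevalleyStructure.NPerm
open Cfsg.Agent.Tits.Roots Cfsg.Agent.Tits.Core Cfsg.Agent.Nodes Cfsg.Agent.Nodes.Reps Cfsg.Agent.Nodes.BNOf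
  Cfsg.Agent.Nodes.RGDChev Cfsg.Agent.Nodes.Bruhat Cfsg.Agent.Nodes.SubComb Cfsg.Agent.Nodes.Coroot
open Cfsg.Agent.KFacts.RgdField Cfsg.Agent.KFacts.RgdChevCoord Cfsg.Agent.BpExc.TorCent Cfsg.Agent.BpExc.TorChev
open Cfsg.Agent.GpExc.Field Cfsg.Agent.BpExc.Tow Cfsg.Agent.BpExc.TowChev Cfsg.Agent.BpExc.Fr
  Cfsg.Agent.BpExc.LangFr Cfsg.Agent.LangThm Cfsg.Agent.BpExc Cfsg.Agent.H129.TorusChar Cfsg.Agent.H129.TorusCent
  Cfsg.Agent.H129.TorusTw Cfsg.Agent.H129.TorusMain Cfsg.Agent.H129.TorusUntw Cfsg.Agent.H129.TorAct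
  Cfsg.Agent.H129.WData Cfsg.Agent.H129.RealT Cfsg.Agent.H129.CycT Cfsg.Agent.H129.CycCard Cfsg.Agent.H129.UntwTwo

universe u

/-- every element of `G0` of order divisible by `r` is conjugate in `D.group k` to a diagonal element -/
def DiagAt (D : ChevalleyDatum) {k : Type*} [Field k] {G0 : Type*} [Group G0] (e0 : G0 →* ↥(D.group k)) (r : ℕ) :
    Prop :=
  ∀ x : G0, r ∣ orderOf x → ∃ g t : ↥(D.group k), t ∈ TT D k ∧ e0 x = g * t * g⁻¹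

theorem exists_pow_order {G : Type*} [Group G] [Finite G] {r : ℕ} {x : G} (h : r ∣ orderOf x) :
    ∃ m : ℕ, orderOf (x ^ m) = r := by
  obtain ⟨m, hm⟩ := h
  have hpos := orderOf_pos x
  have hm0 : m ≠ 0 := by rintro rfl; rw [mul_zero] at hm; omega
  refine ⟨m, ?_⟩
  rw [orderOf_pow' x hm0, hm, Nat.gcd_eq_right (Dvd.intro_left r rfl), Nat.mul_div_cancel _ (Nat.pos_of_ne_zero hm0)]

section Main

variable {D : ChevalleyDatum} {l : ℕ} {M : CoxeterMatrix (Fin l)} {hp : IsType D l M} {k : Type u} [Field k]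
  {W : Type*} [Group W] {cs : CoxeterSystem M W} {p e : ℕ} [Fact p.Prime] [CharP k p] {σ : MulAut ↥(D.group k)}
  {g : (Fin l → ℤ) ≃+ (Fin l → ℤ)}

/-- **diagonalisability** -/
theorem diagAt_of [IsAlgClosed k] [Finite W] (hl : 0 < l) (hk : LocFin k) {hN : NSys M (TT D k) (nc hp k)}
    (he : 0 < e) (hσ : IsFrob p e σ) (F : Fr cs hp.isCartan (TT D k) (XX D l k) σ g) {d' : ℕ}
    {B' : Fin l → Fin l → ℤ} (hB : InvC D l d' B') (hd' : d' ≠ 0) {w : W} {V B : Fin l → Fin l → ℤ} {c : Fin l → ℤ}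
    (h : Cyc l (theta hp cs w g) V B c) {N : ℕ} (hfN : fN c ((p ^ e : ℕ) : ℤ) = N) (hpN : ¬ p ∣ N)
    {G0 : Type*} [Group G0] [Finite G0] {e0 : G0 →* ↥(D.group k)} (he0 : Function.Injective e0)
    (hfix : ∀ x, σ (e0 x) = e0 x) {d : ℕ} (hd : ∀ y, σ y = y → y ^ d ∈ e0.range) {r : ℕ} (hr : r.Prime)
    (hrN : r ∣ N) (hrd : ¬ r ∣ d) (hrW : ¬ r ∣ Nat.card W)
    (hG : ∀ a, IsRoot cs hp.isCartan a → ¬ (r : ℤ) ∣ Gq B ((p ^ e : ℕ) : ℤ) a) : DiagAt D e0 r := by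
  have hN0 : N ≠ 0 := fun h0 => hpN (by rw [h0]; exact dvd_zero p)
  obtain ⟨n, z, t, u, X⟩ := TD.exists_of (hp := hp) (cs := cs) (hN := hN) hl hk he hσ F hB hd' h hfN hpN
  have hord : orderOf (z * t * z⁻¹) = N := by
    have h3 : z * t * z⁻¹ = MulAut.conj z t := rfl
    rw [h3, ← X.htN]
    exact orderOf_injective (MulAut.conj z).toMonoidHom (MulAut.conj z).injective t
  have hσz : σ z = z * n := by rw [X.hz]; group
  have hσa : σ (z * t * z⁻¹) = z * t * z⁻¹ := by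
    rw [map_mul, map_mul, map_inv, hσz]
    calc z * n * σ t * (z * n)⁻¹ = z * (n * σ t * n⁻¹) * z⁻¹ := by group
      _ = z * t * z⁻¹ := by rw [X.hτ]
  have hcard : r ∣ Nat.card ↥(T0 e0 (z * t * z⁻¹)) := by
    have h1 := dvd_card_T0 he0 (hd _ hσa)
    rw [hord] at h1
    exact dvd_of_dvd_mul hr hrN hrd h1
  intro x hx
  obtain ⟨m, hm⟩ := exists_pow_order hx
  obtain ⟨g, -, hg⟩ := centralizer_conj (isCyclic_T0 he0) hr hcard
    (fun y hy hyr => X.centralizer_le hk p hN0 he0 hfix hr hrW hG hy hyr) hm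
  have h1 : x ∈ Subgroup.centralizer {x ^ m} := by
    rw [Subgroup.mem_centralizer_singleton_iff, ← pow_succ, ← pow_succ']
  obtain ⟨j, hj⟩ := (hg x).1 h1
  have hj' : (z * t * z⁻¹) ^ j = e0 (g * x * g⁻¹) := hj
  refine ⟨(e0 g)⁻¹ * z, t ^ j, zpow_mem X.ht j, ?_⟩
  have h2 : e0 x = (e0 g)⁻¹ * e0 (g * x * g⁻¹) * e0 g := by
    rw [map_mul, map_mul, map_inv]; group
  rw [h2, ← hj', conj_zpow]
  group

end Main

section Gen

variable {D : ChevalleyDatum} {l : ℕ} {M : CoxeterMatrix (Fin l)} (hp : IsType D l M)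
  {W : Type*} [Group W] (cs : CoxeterSystem M W)

/-- the embedding into the group over the algebraic closure -/
noncomputable abbrev ebar {D : ChevalleyDatum} (h : InList D) (F : Type u) [Field F] :
    ↥(D.group F) →* ↥(D.group (AlgebraicClosure F)) :=
  emb h (algebraMap F (AlgebraicClosure F))

include cs in
theorem diag_untw [Finite W] (hl : 0 < l) {F : Type u} [Field F] [Fintype F] {q : ℕ} (hq : Fintype.card F = q)
    {d' : ℕ} {B' : Fin l → Fin l → ℤ} (hB : InvC D l d' B') (hd' : d' ≠ 0)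
    {A : Mat l} (hA : ∀ i j, A i j = cartanOf D l i j) {L : List (Fin l × Mat l)} (hL : ChainOK A L)
    {V B : Mat l} {c : Fin l → ℤ} (hcyc : CycOK l (hd L) V B c) {m : ℕ} {R : Fin m → Fin l → ℤ} {prv dep : ℕ → ℕ}
    (hR : RootOK D l (hd L) R prv dep) {N : ℕ} (hfN : fN c (q : ℤ) = N) (hqN : q.Coprime N)
    {r : ℕ} (hr : r.Prime) (hrN : r ∣ N) (hrd : ¬ r ∣ d')
    (hrW : ¬ r ∣ Nat.card W) (hG : ∀ s, ¬ (r : ℤ) ∣ Gq B (q : ℤ) (R s)) : DiagAt D (ebar hp.inList F) r := by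
  have hlin := lin_refl hp cs hA hL
  have hc := cyc_of hlin hcyc
  obtain ⟨p, e, hpF, hpc, hpk, he, rfl, hk⟩ := exists_closure hq
  have hpN : ¬ p ∣ N := fun h1 => by
    have h2 : p ∣ Nat.gcd (p ^ e) N := Nat.dvd_gcd (dvd_pow_self p he.ne') h1
    rw [hqN] at h2
    exact hpF.out.one_lt.ne' (Nat.dvd_one.1 h2)
  have : Finite ↥(D.group F) := inferInstance
  exact diagAt_of (k := AlgebraicClosure F) (hp := hp) (cs := cs) hl hk
    (hN := nsys_of_locFin hp cs hk p) he isFrob_phi (fr_phi hp cs) hB hd'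
    (w := cs.wordProd (L.map Prod.fst)) hc hfN hpN
    (e0 := emb hp.inList (algebraMap F (AlgebraicClosure F))) (emb_injective hp.inList _) (phi_emb hp _ hq)
    (fun y hy => fix_pow_range hp cs _ hq hB hd' hy) hr hrN hrd hrW
    (fun a ha => not_dvd_G hp cs hlin hc hR hfN hr hrN hqN hG ha)

end Gen

variable {F : Type u} [Field F] [Fintype F] {q : ℕ}

theorem nd1 {r : ℕ} (hr : r.Prime) : ¬ r ∣ 1 := fun h => hr.one_lt.ne' (Nat.dvd_one.1 h)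

theorem ndp {r s : ℕ} (hr : r.Prime) (hs : s.Prime) (h : r ≠ s) : ¬ r ∣ s :=
  fun h' => h ((Nat.prime_dvd_prime_iff_eq hr hs).1 h')

/-! ### `G₂` -/

/-- `G₂(q)`, `Φ₃` -/
theorem diag_G2_3 (hq : Fintype.card F = q) {r : ℕ} (hr : r.Prime)
    (h : (r : ℤ) ∣ 1 + (q : ℤ) + (q : ℤ) ^ 2) (hr3 : r ≠ 3) : DiagAt chevG2 (ebar typeG2.inList F) r := by
  have : Finite CoxeterMatrix.G₂.Group := Nat.finite_of_card_ne_zero (by rw [cardW_G2]; norm_num)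
  obtain ⟨m, hm⟩ : ∃ m : ℕ, (m : ℤ) = 1 + (q : ℤ) + (q : ℤ) ^ 2 := ⟨1 + q + q ^ 2, by push_cast; ring⟩
  have hrm : r ∣ m := dvd_of_int h (by rw [hm, mul_one])
  exact diag_untw typeG2 CoxeterMatrix.G₂.toCoxeterSystem (by norm_num) hq TorusChar.invC_G2 one_ne_zero DataG2.hA
    DataG2.chainOK DataG2.cycOK DataG2.rootOK (by rw [DataG2.fN_eq, hm])
    (UntwData.coprime_of_eq (a := 1 + (q : ℤ)) (by rw [hm]; ring)) hr hrm
    (nd1 hr) (good_G2_3 hm hr hrm hr3).1 (good_G2_3 hm hr hrm hr3).2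

/-- `G₂(q)`, `Φ₆` -/
theorem diag_G2_6 (hq : Fintype.card F = q) {r : ℕ} (hr : r.Prime)
    (h : (r : ℤ) ∣ 1 - (q : ℤ) + (q : ℤ) ^ 2) (hr3 : r ≠ 3) : DiagAt chevG2 (ebar typeG2.inList F) r := by
  have : Finite CoxeterMatrix.G₂.Group := Nat.finite_of_card_ne_zero (by rw [cardW_G2]; norm_num)
  obtain ⟨m, hm⟩ : ∃ m : ℕ, (m : ℤ) = 1 - (q : ℤ) + (q : ℤ) ^ 2 :=
    Int.eq_ofNat_of_zero_le (by nlinarith [sq_nonneg ((q : ℤ) - 1), (Nat.cast_nonneg q : (0 : ℤ) ≤ q)]) |>.imp fun _ h => h.symm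
  have hrm : r ∣ m := dvd_of_int h (by rw [hm, mul_one])
  exact diag_untw typeG2 CoxeterMatrix.G₂.toCoxeterSystem (by norm_num) hq TorusChar.invC_G2 one_ne_zero DataG2h.hA
    DataG2h.chainOK DataG2h.cycOK DataG2h.rootOK (by rw [DataG2h.fN_eq, hm])
    (UntwData.coprime_of_eq (a := -1 + (q : ℤ)) (by rw [hm]; ring)) hr hrm
    (nd1 hr) (good_G2_6 hm hr hrm hr3).1 (good_G2_6 hm hr hrm hr3).2

/-! ### `F₄` -/

/-- `F₄(q)`, `Φ₁₂` -/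
theorem diag_F4_12 (hq : Fintype.card F = q) {m : ℕ} (hm : (m : ℤ) = 1 - (q : ℤ) ^ 2 + (q : ℤ) ^ 4) {r : ℕ}
    (hr : r.Prime) (h : (r : ℤ) ∣ 1 - (q : ℤ) ^ 2 + (q : ℤ) ^ 4) : DiagAt chevF4 (ebar typeF4.inList F) r := by
  have : Finite CoxeterMatrix.F₄.Group := Nat.finite_of_card_ne_zero (by rw [cardW_F4]; norm_num)
  have hrm : r ∣ m := dvd_of_int h (by rw [hm, mul_one])
  exact diag_untw typeF4 CoxeterMatrix.F₄.toCoxeterSystem (by norm_num) hq TorusChar.invC_F4 one_ne_zero DataF4h.hA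
    DataF4h.chainOK DataF4h.cycOK DataF4h.rootOK (by rw [DataF4h.fN_eq, hm])
    (UntwData.coprime_of_eq (a := -(q : ℤ) + (q : ℤ) ^ 3) (by rw [hm]; ring)) hr hrm
    (nd1 hr) (good_F4_12 hm hr hrm).1 (good_F4_12 hm hr hrm).2

/-- `F₄(q)`, `Φ₈` -/
theorem diag_F4_8 (hq : Fintype.card F = q) {m : ℕ} (hm : (m : ℤ) = 1 + (q : ℤ) ^ 4) {r : ℕ} (hr : r.Prime)
    (h : (r : ℤ) ∣ 1 + (q : ℤ) ^ 4) (hr2 : r ≠ 2) : DiagAt chevF4 (ebar typeF4.inList F) r := by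
  have : Finite CoxeterMatrix.F₄.Group := Nat.finite_of_card_ne_zero (by rw [cardW_F4]; norm_num)
  have hrm : r ∣ m := dvd_of_int h (by rw [hm, mul_one])
  exact diag_untw typeF4 CoxeterMatrix.F₄.toCoxeterSystem (by norm_num) hq TorusChar.invC_F4 one_ne_zero DataF4.hA
    DataF4.chainOK DataF4.cycOK DataF4.rootOK (by rw [DataF4.fN_eq, hm])
    (UntwData.coprime_of_eq (a := (q : ℤ) ^ 3) (by rw [hm]; ring)) hr hrm
    (nd1 hr) (good_F4_8 hm hr hrm hr2).1 (good_F4_8 hm hr hrm hr2).2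

/-! ### `E₆` -/

/-- `E₆(q)`, `Φ₉` -/
theorem diag_E6_9 (hq : Fintype.card F = q) {m : ℕ} (hm : (m : ℤ) = 1 + (q : ℤ) ^ 3 + (q : ℤ) ^ 6) {r : ℕ}
    (hr : r.Prime) (h : (r : ℤ) ∣ 1 + (q : ℤ) ^ 3 + (q : ℤ) ^ 6) (hr3 : r ≠ 3) :
    DiagAt chevE6 (ebar typeE6.inList F) r := by
  have := TwT.finite_W6
  have hrm : r ∣ m := dvd_of_int h (by rw [hm, mul_one])
  exact diag_untw typeE6 CoxeterMatrix.E₆.toCoxeterSystem (by norm_num) hq TorusChar.invC_E6 (by norm_num)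
    DataE6n.hA DataE6n.chainOK DataE6n.cycOK DataE6n.rootOK (by rw [DataE6n.fN_eq, hm])
    (UntwData.coprime_of_eq (a := (q : ℤ) ^ 2 + (q : ℤ) ^ 5) (by rw [hm]; ring)) hr hrm (ndp hr Nat.prime_three hr3)
    (good_E6_9 hm hr hrm hr3).1 (good_E6_9 hm hr hrm hr3).2

/-- `E₆(q)`, `Φ₁₂ Φ₃` -/
theorem diag_E6_12 (hq : Fintype.card F = q) {m : ℕ}
    (hm : (m : ℤ) = (1 - (q : ℤ) ^ 2 + (q : ℤ) ^ 4) * (1 + (q : ℤ) + (q : ℤ) ^ 2)) {r : ℕ}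
    (hr : r.Prime) (h : (r : ℤ) ∣ 1 - (q : ℤ) ^ 2 + (q : ℤ) ^ 4) :
    DiagAt chevE6 (ebar typeE6.inList F) r := by
  have := TwT.finite_W6
  obtain ⟨h2, h3, h5⟩ := ne_12 h
  refine diag_untw typeE6 CoxeterMatrix.E₆.toCoxeterSystem (by norm_num) hq TorusChar.invC_E6 (by norm_num)
    DataE6.hA DataE6.chainOK DataE6.cycOK DataE6.rootOK (by rw [DataE6.fN_eq, hm]; ring)
    (UntwData.coprime_of_eq (a := 1 - (q : ℤ) ^ 2 + (q : ℤ) ^ 4 + (q : ℤ) ^ 5) (by rw [hm]; ring)) hr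
    (dvd_of_int h hm) (ndp hr Nat.prime_three h3) (not_dvd_W_E6 hr h2 h3 h5) fun s hs => ?_
  rcases DataE6.dvd_of_G h s hs with h | h
  · exact not_one hr h
  · exact not_prime hr Nat.prime_two h2 h

/-- `E₆(q)`, `Φ₈ (q² - 1)` -/
theorem diag_E6_8 (hq : Fintype.card F = q) {m : ℕ}
    (hm : (m : ℤ) = (1 + (q : ℤ) ^ 4) * ((q : ℤ) ^ 2 - 1)) {r : ℕ}
    (hr : r.Prime) (h : (r : ℤ) ∣ 1 + (q : ℤ) ^ 4) (h2 : r ≠ 2) :
    DiagAt chevE6 (ebar typeE6.inList F) r := by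
  have := TwT.finite_W6
  obtain ⟨h3, h5⟩ := ne_8 h
  refine diag_untw typeE6 CoxeterMatrix.E₆.toCoxeterSystem (by norm_num) hq TorusChar.invC_E6 (by norm_num)
    DataE6e.hA DataE6e.chainOK DataE6e.cycOK DataE6e.rootOK (by rw [DataE6e.fN_eq, hm]; ring)
    (coprime_of_neg (a := (q : ℤ) - (q : ℤ) ^ 3 + (q : ℤ) ^ 5) (by rw [hm]; ring)) hr
    (dvd_of_int h hm) (ndp hr Nat.prime_three h3) (not_dvd_W_E6 hr h2 h3 h5) fun s hs => ?_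
  rcases DataE6e.dvd_of_G h s hs with h | h
  · exact not_one hr h
  · exact not_prime hr Nat.prime_two h2 h

/-! ### `E₇` -/

/-- `E₇(q)`, `q⁷ - 1` -/
theorem diag_E7_7 (hq : Fintype.card F = q) {m : ℕ} (hm : (m : ℤ) = (q : ℤ) ^ 7 - 1) {r : ℕ} (hr : r.Prime)
    (h : (r : ℤ) ∣ 1 + (q : ℤ) + (q : ℤ) ^ 2 + (q : ℤ) ^ 3 + (q : ℤ) ^ 4 + (q : ℤ) ^ 5 + (q : ℤ) ^ 6)
    (hr7 : r ≠ 7) : DiagAt chevE7 (ebar typeE7.inList F) r := by
  have := finite_W7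
  have h2 : r ≠ 2 ∧ r ≠ 3 ∧ r ≠ 5 := by
    have hz := zmod_of h
    push_cast at hz
    refine ⟨?_, ?_, ?_⟩ <;> rintro rfl
    · generalize (q : ZMod 2) = x at hz; revert hz; revert x; decide
    · generalize (q : ZMod 3) = x at hz; revert hz; revert x; decide
    · generalize (q : ZMod 5) = x at hz; revert hz; revert x; decide
  obtain ⟨h2, h3, h5⟩ := h2
  refine diag_untw typeE7 CoxeterMatrix.E₇.toCoxeterSystem (by norm_num) hq TorusChar.invC_E7 (by norm_num)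
    DataE7s.hA DataE7s.chainOK DataE7s.cycOK DataE7s.rootOK (by rw [DataE7s.fN_eq, hm]; ring)
    (coprime_of_neg (a := (q : ℤ) ^ 6) (by rw [hm]; ring)) hr
    (dvd_of_int h (w := (q : ℤ) - 1) (by rw [hm]; ring)) (ndp hr Nat.prime_two h2) (not_dvd_W7 hr h2 h3 h5 hr7) fun s hs => ?_
  rcases DataE7s.dvd_of_G h s hs with h | h | h
  · exact not_one hr h
  · exact not_prime hr Nat.prime_two h2 h
  · exact not_prime hr (by norm_num : (7 : ℕ).Prime) hr7 h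

/-- `E₇(q)`, `q⁷ + 1` -/
theorem diag_E7_14 (hq : Fintype.card F = q) {m : ℕ} (hm : (m : ℤ) = (q : ℤ) ^ 7 + 1) {r : ℕ} (hr : r.Prime)
    (h : (r : ℤ) ∣ 1 - (q : ℤ) + (q : ℤ) ^ 2 - (q : ℤ) ^ 3 + (q : ℤ) ^ 4 - (q : ℤ) ^ 5 + (q : ℤ) ^ 6)
    (hr7 : r ≠ 7) : DiagAt chevE7 (ebar typeE7.inList F) r := by
  have := finite_W7
  have h2 : r ≠ 2 ∧ r ≠ 3 ∧ r ≠ 5 := by
    have hz := zmod_of h
    push_cast at hz
    refine ⟨?_, ?_, ?_⟩ <;> rintro rfl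
    · generalize (q : ZMod 2) = x at hz; revert hz; revert x; decide
    · generalize (q : ZMod 3) = x at hz; revert hz; revert x; decide
    · generalize (q : ZMod 5) = x at hz; revert hz; revert x; decide
  obtain ⟨h2, h3, h5⟩ := h2
  refine diag_untw typeE7 CoxeterMatrix.E₇.toCoxeterSystem (by norm_num) hq TorusChar.invC_E7 (by norm_num)
    DataE7m.hA DataE7m.chainOK DataE7m.cycOK DataE7m.rootOK (by rw [DataE7m.fN_eq, hm]; ring)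
    (UntwData.coprime_of_eq (a := (q : ℤ) ^ 6) (by rw [hm]; ring)) hr
    (dvd_of_int h (w := (q : ℤ) + 1) (by rw [hm]; ring)) (ndp hr Nat.prime_two h2) (not_dvd_W7 hr h2 h3 h5 hr7) fun s hs => ?_
  rcases DataE7m.dvd_of_G h s hs with h | h | h
  · exact not_one hr h
  · exact not_prime hr Nat.prime_two h2 h
  · exact not_prime hr (by norm_num : (7 : ℕ).Prime) hr7 h

/-- `E₇(q)`, `Φ₉ (q - 1)` -/
theorem diag_E7_9 (hq : Fintype.card F = q) {m : ℕ}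
    (hm : (m : ℤ) = (1 + (q : ℤ) ^ 3 + (q : ℤ) ^ 6) * ((q : ℤ) - 1)) {r : ℕ} (hr : r.Prime)
    (h : (r : ℤ) ∣ 1 + (q : ℤ) ^ 3 + (q : ℤ) ^ 6) (hr3 : r ≠ 3) :
    DiagAt chevE7 (ebar typeE7.inList F) r := by
  have := finite_W7
  have h2 : r ≠ 2 ∧ r ≠ 5 ∧ r ≠ 7 := by
    have hz := zmod_of h
    push_cast at hz
    refine ⟨?_, ?_, ?_⟩ <;> rintro rfl
    · generalize (q : ZMod 2) = x at hz; revert hz; revert x; decide
    · generalize (q : ZMod 5) = x at hz; revert hz; revert x; decide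
    · generalize (q : ZMod 7) = x at hz; revert hz; revert x; decide
  obtain ⟨h2, h5, h7⟩ := h2
  refine diag_untw typeE7 CoxeterMatrix.E₇.toCoxeterSystem (by norm_num) hq TorusChar.invC_E7 (by norm_num)
    DataE7n.hA DataE7n.chainOK DataE7n.cycOK DataE7n.rootOK (by rw [DataE7n.fN_eq, hm]; ring)
    (coprime_of_neg (a := 1 - (q : ℤ) ^ 2 + (q : ℤ) ^ 3 - (q : ℤ) ^ 5 + (q : ℤ) ^ 6) (by rw [hm]; ring)) hr
    (dvd_of_int h hm) (ndp hr Nat.prime_two h2) (not_dvd_W7 hr h2 hr3 h5 h7) fun s hs => ?_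
  rcases DataE7n.dvd_of_G h s hs with h | h
  · exact not_one hr h
  · exact not_prime hr Nat.prime_three hr3 h

/-- `E₇(q)`, `Φ₁₈ (q + 1)` -/
theorem diag_E7_18 (hq : Fintype.card F = q) {m : ℕ}
    (hm : (m : ℤ) = (1 - (q : ℤ) ^ 3 + (q : ℤ) ^ 6) * ((q : ℤ) + 1)) {r : ℕ} (hr : r.Prime)
    (h : (r : ℤ) ∣ 1 - (q : ℤ) ^ 3 + (q : ℤ) ^ 6) (hr3 : r ≠ 3) :
    DiagAt chevE7 (ebar typeE7.inList F) r := by
  have := finite_W7
  have h2 : r ≠ 2 ∧ r ≠ 5 ∧ r ≠ 7 := by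
    have hz := zmod_of h
    push_cast at hz
    refine ⟨?_, ?_, ?_⟩ <;> rintro rfl
    · generalize (q : ZMod 2) = x at hz; revert hz; revert x; decide
    · generalize (q : ZMod 5) = x at hz; revert hz; revert x; decide
    · generalize (q : ZMod 7) = x at hz; revert hz; revert x; decide
  obtain ⟨h2, h5, h7⟩ := h2
  refine diag_untw typeE7 CoxeterMatrix.E₇.toCoxeterSystem (by norm_num) hq TorusChar.invC_E7 (by norm_num)
    DataE7h.hA DataE7h.chainOK DataE7h.cycOK DataE7h.rootOK (by rw [DataE7h.fN_eq, hm]; ring)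
    (UntwData.coprime_of_eq (a := 1 - (q : ℤ) ^ 2 - (q : ℤ) ^ 3 + (q : ℤ) ^ 5 + (q : ℤ) ^ 6) (by rw [hm]; ring)) hr
    (dvd_of_int h hm) (ndp hr Nat.prime_two h2) (not_dvd_W7 hr h2 hr3 h5 h7) fun s hs => ?_
  rcases DataE7h.dvd_of_G h s hs with h | h
  · exact not_one hr h
  · exact not_prime hr Nat.prime_three hr3 h

/-! ### `E₈` -/

/-- `E₈(q)`, `Φ₃₀` -/
theorem diag_E8_30 (hq : Fintype.card F = q) {m : ℕ}
    (hm : (m : ℤ) = 1 + (q : ℤ) - (q : ℤ) ^ 3 - (q : ℤ) ^ 4 - (q : ℤ) ^ 5 + (q : ℤ) ^ 7 + (q : ℤ) ^ 8) {r : ℕ}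
    (hr : r.Prime)
    (h : (r : ℤ) ∣ 1 + (q : ℤ) - (q : ℤ) ^ 3 - (q : ℤ) ^ 4 - (q : ℤ) ^ 5 + (q : ℤ) ^ 7 + (q : ℤ) ^ 8) :
    DiagAt chevE8 (ebar typeE8.inList F) r := by
  have := finite_W8
  have hrm : r ∣ m := dvd_of_int h (by rw [hm, mul_one])
  exact diag_untw typeE8 CoxeterMatrix.E₈.toCoxeterSystem (by norm_num) hq TorusChar.invC_E8 one_ne_zero DataE8.hA
    DataE8.chainOK DataE8.cycOK DataE8.rootOK (by rw [DataE8.fN_eq, hm])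
    (UntwData.coprime_of_eq (a := 1 - (q : ℤ) ^ 2 - (q : ℤ) ^ 3 - (q : ℤ) ^ 4 + (q : ℤ) ^ 6 + (q : ℤ) ^ 7)
      (by rw [hm]; ring)) hr hrm (nd1 hr) (good_E8_30 hm hr hrm).1 (good_E8_30 hm hr hrm).2

/-- `E₈(q)`, `Φ₁₅` -/
theorem diag_E8_15 (hq : Fintype.card F = q) {m : ℕ}
    (hm : (m : ℤ) = 1 - (q : ℤ) + (q : ℤ) ^ 3 - (q : ℤ) ^ 4 + (q : ℤ) ^ 5 - (q : ℤ) ^ 7 + (q : ℤ) ^ 8) {r : ℕ}
    (hr : r.Prime)
    (h : (r : ℤ) ∣ 1 - (q : ℤ) + (q : ℤ) ^ 3 - (q : ℤ) ^ 4 + (q : ℤ) ^ 5 - (q : ℤ) ^ 7 + (q : ℤ) ^ 8) :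
    DiagAt chevE8 (ebar typeE8.inList F) r := by
  have := finite_W8
  have hrm : r ∣ m := dvd_of_int h (by rw [hm, mul_one])
  exact diag_untw typeE8 CoxeterMatrix.E₈.toCoxeterSystem (by norm_num) hq TorusChar.invC_E8 one_ne_zero DataE8a.hA
    DataE8a.chainOK DataE8a.cycOK DataE8a.rootOK (by rw [DataE8a.fN_eq, hm])
    (UntwData.coprime_of_eq (a := -1 + (q : ℤ) ^ 2 - (q : ℤ) ^ 3 + (q : ℤ) ^ 4 - (q : ℤ) ^ 6 + (q : ℤ) ^ 7)
      (by rw [hm]; ring)) hr hrm (nd1 hr) (good_E8_15 hm hr hrm).1 (good_E8_15 hm hr hrm).2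

/-- `E₈(q)`, `Φ₂₄` -/
theorem diag_E8_24 (hq : Fintype.card F = q) {m : ℕ} (hm : (m : ℤ) = 1 - (q : ℤ) ^ 4 + (q : ℤ) ^ 8) {r : ℕ}
    (hr : r.Prime) (h : (r : ℤ) ∣ 1 - (q : ℤ) ^ 4 + (q : ℤ) ^ 8) : DiagAt chevE8 (ebar typeE8.inList F) r := by
  have := finite_W8
  have hrm : r ∣ m := dvd_of_int h (by rw [hm, mul_one])
  exact diag_untw typeE8 CoxeterMatrix.E₈.toCoxeterSystem (by norm_num) hq TorusChar.invC_E8 one_ne_zero DataE8c.hA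
    DataE8c.chainOK DataE8c.cycOK DataE8c.rootOK (by rw [DataE8c.fN_eq, hm])
    (UntwData.coprime_of_eq (a := -(q : ℤ) ^ 3 + (q : ℤ) ^ 7) (by rw [hm]; ring)) hr hrm (nd1 hr)
    (good_E8_24 hm hr hrm).1 (good_E8_24 hm hr hrm).2

/-- `E₈(q)`, `Φ₂₀` -/
theorem diag_E8_20 (hq : Fintype.card F = q) {m : ℕ}
    (hm : (m : ℤ) = 1 - (q : ℤ) ^ 2 + (q : ℤ) ^ 4 - (q : ℤ) ^ 6 + (q : ℤ) ^ 8) {r : ℕ} (hr : r.Prime)
    (h : (r : ℤ) ∣ 1 - (q : ℤ) ^ 2 + (q : ℤ) ^ 4 - (q : ℤ) ^ 6 + (q : ℤ) ^ 8) (h5 : r ≠ 5) :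
    DiagAt chevE8 (ebar typeE8.inList F) r := by
  have := finite_W8
  have hrm : r ∣ m := dvd_of_int h (by rw [hm, mul_one])
  exact diag_untw typeE8 CoxeterMatrix.E₈.toCoxeterSystem (by norm_num) hq TorusChar.invC_E8 one_ne_zero DataE8b.hA
    DataE8b.chainOK DataE8b.cycOK DataE8b.rootOK (by rw [DataE8b.fN_eq, hm])
    (UntwData.coprime_of_eq (a := -(q : ℤ) + (q : ℤ) ^ 3 - (q : ℤ) ^ 5 + (q : ℤ) ^ 7) (by rw [hm]; ring))
    hr hrm (nd1 hr) (good_E8_20 hm hr hrm h5).1 (good_E8_20 hm hr hrm h5).2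

/-! ### the twisted groups -/

section Tw

/-- **`³D₄(q)`** -/
theorem diag_tri {K : Type u} [Field K] [Fintype K] {q : ℕ} (hq : IsPrimePow q) (hK : Fintype.card K = q ^ 3)
    {A : Mat 4} (hA : ∀ i j, A i j = cartanOf chevD4 4 i j)
    {L : List (Fin 4 × Mat 4)} (hL : ChainOK A L) {Th : Mat 4}
    (hT : ∀ j, hd L ((![2, 1, 3, 0] : Fin 4 → Fin 4) j) = Th j)
    {V B : Mat 4} {c : Fin 4 → ℤ} (hcyc : CycOK 4 Th V B c) {m : ℕ} {R : Fin m → Fin 4 → ℤ}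
    {prv dep : ℕ → ℕ} (hR : RootOK chevD4 4 Th R prv dep) {N : ℕ} (hfN : fN c (q : ℤ) = N)
    (hqN : q.Coprime N) {r : ℕ} (hr : r.Prime) (hrN : r ∣ N) (hrW : ¬ r ∣ Nat.card coxeterD4.Group)
    (hG : ∀ s, ¬ (r : ℤ) ∣ Gq B (q : ℤ) (R s)) :
    DiagAt chevD4 (TriD4.embT (algebraMap K (AlgebraicClosure K)) hq hK) r := by
  obtain ⟨p, e', hpF, hpc, hpk, -, hpe, hk⟩ := exists_closure hK
  obtain ⟨p', e, hp', he, hqe'⟩ := id hq
  have hpp : p' = p := by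
    have h1 : p' ∣ p ^ e' := by
      rw [← hpe, ← hqe']
      exact dvd_pow (dvd_pow_self p' he.ne') (by norm_num)
    exact (Nat.prime_dvd_prime_iff_eq hp'.nat_prime hpF.out).1 (hp'.nat_prime.dvd_of_dvd_pow h1)
  subst hpp
  obtain rfl : q = p' ^ e := hqe'.symm
  have hpN : ¬ p' ∣ N := fun h1 => by
    have h2 : p' ∣ Nat.gcd (p' ^ e) N := Nat.dvd_gcd (dvd_pow_self p' he.ne') h1
    rw [hqN] at h2
    exact hpF.out.one_lt.ne' (Nat.dvd_one.1 h2)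
  have hlin := TwD4Cyc.lin_tri coxeterD4.toCoxeterSystem hA hL hT
  have hc := cyc_of hlin hcyc
  exact diagAt_of (k := AlgebraicClosure K) (hp := RGDTwD4.hp)
    (cs := coxeterD4.toCoxeterSystem) (by norm_num) hk
    (hN := nsys_of_locFin RGDTwD4.hp coxeterD4.toCoxeterSystem hk p') he TriD4.isFrob_tau
    (TriD4.fr_tau coxeterD4.toCoxeterSystem) TorusChar.invC_D4 (by norm_num)
    (w := coxeterD4.toCoxeterSystem.wordProd (L.map Prod.fst)) hc hfN hpN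
    (e0 := TriD4.embT (algebraMap K (AlgebraicClosure K)) hq hK) (TriD4.embT_injective _ hq hK)
    (TriD4.tau_embT _ rfl hq hK) (d := 1) (fun y hy => by
      rw [pow_one]
      exact TriD4.tau_range _ rfl hq hK hy) hr hrN (nd1 hr) hrW
    fun a ha => not_dvd_G RGDTwD4.hp coxeterD4.toCoxeterSystem hlin hc hR hfN hr hrN hqN hG ha

/-- **`²E₆(q)`** -/
theorem diag_flip {K : Type u} [Field K] [Fintype K] {q : ℕ} (hq : IsPrimePow q) (hK : Fintype.card K = q ^ 2)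
    {A : Mat 6} (hA : ∀ i j, A i j = cartanOf chevE6 6 i j)
    {L : List (Fin 6 × Mat 6)} (hL : ChainOK A L) {Th : Mat 6}
    (hT : ∀ j, hd L ((![5, 1, 4, 3, 2, 0] : Fin 6 → Fin 6) j) = Th j)
    {V B : Mat 6} {c : Fin 6 → ℤ} (hcyc : CycOK 6 Th V B c) {m : ℕ} {R : Fin m → Fin 6 → ℤ}
    {prv dep : ℕ → ℕ} (hR : RootOK chevE6 6 Th R prv dep) {N : ℕ} (hfN : fN c (q : ℤ) = N)
    (hqN : q.Coprime N) {r : ℕ} (hr : r.Prime) (hrN : r ∣ N) (hr3 : r ≠ 3)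
    (hrW : ¬ r ∣ Nat.card CoxeterMatrix.E₆.Group) (hG : ∀ s, ¬ (r : ℤ) ∣ Gq B (q : ℤ) (R s)) :
    DiagAt chevE6 (TwE6Fr.embT (algebraMap K (AlgebraicClosure K)) hq hK) r := by
  have := TwT.finite_W6
  obtain ⟨p, e', hpF, hpc, hpk, -, hpe, hk⟩ := exists_closure hK
  obtain ⟨p', e, hp', he, hqe'⟩ := id hq
  have hpp : p' = p := by
    have h1 : p' ∣ p ^ e' := by
      rw [← hpe, ← hqe']
      exact dvd_pow (dvd_pow_self p' he.ne') (by norm_num)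
    exact (Nat.prime_dvd_prime_iff_eq hp'.nat_prime hpF.out).1 (hp'.nat_prime.dvd_of_dvd_pow h1)
  subst hpp
  obtain rfl : q = p' ^ e := hqe'.symm
  have hpN : ¬ p' ∣ N := fun h1 => by
    have h2 : p' ∣ Nat.gcd (p' ^ e) N := Nat.dvd_gcd (dvd_pow_self p' he.ne') h1
    rw [hqN] at h2
    exact hpF.out.one_lt.ne' (Nat.dvd_one.1 h2)
  have hlin := TwT.lin_flip CoxeterMatrix.E₆.toCoxeterSystem hA hL hT
  have hc := cyc_of hlin hcyc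
  exact diagAt_of (k := AlgebraicClosure K) (hp := RGDTwE6.hp)
    (cs := CoxeterMatrix.E₆.toCoxeterSystem) (by norm_num) hk
    (hN := nsys_of_locFin RGDTwE6.hp CoxeterMatrix.E₆.toCoxeterSystem hk p') he TwE6Fr.isFrob_tau
    (TwE6Fr.fr_tau CoxeterMatrix.E₆.toCoxeterSystem) TorusChar.invC_E6 (by norm_num)
    (w := CoxeterMatrix.E₆.toCoxeterSystem.wordProd (L.map Prod.fst)) hc hfN hpN
    (e0 := TwE6Fr.embT (algebraMap K (AlgebraicClosure K)) hq hK) (TwE6Fr.embT_injective _ hq hK)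
    (TwE6Fr.tau_embT _ rfl hq hK) (d := Nat.gcd 3 (p' ^ e + 1)) (fun y hy => TwE6Fr.tau_pow _ rfl hq hK hy)
    hr hrN (not_dvd_gcd3 hr hr3) hrW
    fun a ha => not_dvd_G RGDTwE6.hp CoxeterMatrix.E₆.toCoxeterSystem hlin hc hR hfN hr hrN hqN hG ha

end Tw

/-- `³D₄(q)`, `Φ₁₂` -/
theorem diag_tD4_12 (hq : IsPrimePow q) (hK : Fintype.card F = q ^ 3) {m : ℕ}
    (hm : (m : ℤ) = 1 - (q : ℤ) ^ 2 + (q : ℤ) ^ 4) {r : ℕ} (hr : r.Prime)
    (h : (r : ℤ) ∣ 1 - (q : ℤ) ^ 2 + (q : ℤ) ^ 4) :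
    DiagAt chevD4 (TriD4.embT (algebraMap F (AlgebraicClosure F)) hq hK) r := by
  obtain ⟨h2, h3, -⟩ := ne_12 h
  exact diag_tri hq hK DataD4C.hA DataD4C.chainOK DataD4C.hd_pi DataD4C.cycOK DataD4C.rootOK
    (by rw [DataD4C.fN_eq, hm]) (UntwData.coprime_of_eq (a := -(q : ℤ) + (q : ℤ) ^ 3) (by rw [hm]; ring)) hr
    (dvd_of_int h (by rw [hm, mul_one])) (TwD4Cyc.not_dvd_W hr h2 h3)
    (fun s hs => not_one hr (DataD4C.dvd_of_G h s hs))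

/-- `²E₆(q)`, `Φ₁₈` -/
theorem diag_tE6_18 (hq : IsPrimePow q) (hK : Fintype.card F = q ^ 2) {m : ℕ}
    (hm : (m : ℤ) = 1 - (q : ℤ) ^ 3 + (q : ℤ) ^ 6) {r : ℕ} (hr : r.Prime)
    (h : (r : ℤ) ∣ 1 - (q : ℤ) ^ 3 + (q : ℤ) ^ 6) (hr3 : r ≠ 3) :
    DiagAt chevE6 (TwE6Fr.embT (algebraMap F (AlgebraicClosure F)) hq hK) r := by
  have hrm : r ∣ m := dvd_of_int h (by rw [hm, mul_one])
  exact diag_flip hq hK DataTE6n.hA DataTE6n.chainOK DataTE6n.hd_pi DataTE6n.cycOK DataTE6n.rootOK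
    (by rw [DataTE6n.fN_eq, hm]) (UntwData.coprime_of_eq (a := -(q : ℤ) ^ 2 + (q : ℤ) ^ 5) (by rw [hm]; ring)) hr
    hrm hr3 (good_tE6_18 hm hr hrm hr3).1 (good_tE6_18 hm hr hrm hr3).2

/-- `²E₆(q)`, `Φ₁₂ Φ₆` -/
theorem diag_tE6_12 (hq : IsPrimePow q) (hK : Fintype.card F = q ^ 2) {m : ℕ}
    (hm : (m : ℤ) = (1 - (q : ℤ) ^ 2 + (q : ℤ) ^ 4) * (1 - (q : ℤ) + (q : ℤ) ^ 2)) {r : ℕ} (hr : r.Prime)
    (h : (r : ℤ) ∣ 1 - (q : ℤ) ^ 2 + (q : ℤ) ^ 4) :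
    DiagAt chevE6 (TwE6Fr.embT (algebraMap F (AlgebraicClosure F)) hq hK) r := by
  obtain ⟨h2, h3, hr5⟩ := ne_12 h
  refine diag_flip hq hK DataTE6c.hA DataTE6c.chainOK DataTE6c.hd_pi DataTE6c.cycOK
    DataTE6c.rootOK (N := m) (by rw [DataTE6c.fN_eq, hm]; ring)
    (UntwData.coprime_of_eq (a := -1 + (q : ℤ) ^ 2 - (q : ℤ) ^ 4 + (q : ℤ) ^ 5) (by rw [hm]; ring)) hr
    (dvd_of_int h hm) h3 (not_dvd_W_E6 hr h2 h3 hr5) fun s hs => ?_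
  rcases DataTE6c.dvd_of_G h s hs with h | h
  · exact not_one hr h
  · exact not_prime hr Nat.prime_two h2 h

/-- `²E₆(q)`, `Φ₈ (q² - 1)` -/
theorem diag_tE6_8 (hq : IsPrimePow q) (hK : Fintype.card F = q ^ 2) {m : ℕ}
    (hm : (m : ℤ) = (1 + (q : ℤ) ^ 4) * ((q : ℤ) ^ 2 - 1)) {r : ℕ} (hr : r.Prime)
    (h : (r : ℤ) ∣ 1 + (q : ℤ) ^ 4) (h2 : r ≠ 2) :
    DiagAt chevE6 (TwE6Fr.embT (algebraMap F (AlgebraicClosure F)) hq hK) r := by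
  obtain ⟨h3, hr5⟩ := ne_8 h
  refine diag_flip hq hK DataTE6e.hA DataTE6e.chainOK DataTE6e.hd_pi DataTE6e.cycOK
    DataTE6e.rootOK (N := m) (by rw [DataTE6e.fN_eq, hm]; ring)
    (coprime_of_neg (a := (q : ℤ) - (q : ℤ) ^ 3 + (q : ℤ) ^ 5) (by rw [hm]; ring)) hr
    (dvd_of_int h hm) h3 (not_dvd_W_E6 hr h2 h3 hr5) fun s hs => ?_
  rcases DataTE6e.dvd_of_G h s hs with h | h
  · exact not_one hr h
  · exact not_prime hr Nat.prime_two h2 h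

end Cfsg.Agent.H129.Diag
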